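import Cfsg.Agent.KnownB.OrthSplit.Core
import Cfsg.Agent.KnownB.Proj.Balance.MinusBalance

/-! Graph involutions of the plus and minus type groups. -/

set_option autoImplicit false
set_option maxHeartbeats 1000000

namespace Cfsg.Agent.KnownB.OrthSplit

open Matrix Module
open Cfsg.Agent.Forms (qPlus qMinus)
open Cfsg.Agent.KnownB.Proj.Orth

universe u

variable {F : Type u} [Field F] [Fintype F] {m : ℕ}

theorem split_plus (hodd : Odd (Fintype.card F)) (hm : 4 ≤ m)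
    (Qf : (Fin m ⊕ Fin m → F) → F) (hQf : ⇑(qPlus m F) = Qf) (γ : MulAut (Cfsg.POmega F Qf))
    (hγ : ∃ g : GL (Fin m ⊕ Fin m) F, g ∈ Cfsg.Geo.quadSimilarityGroup (F := F) Qf ∧
      ¬ Cfsg.PreservesSingularClasses Qf (g : Matrix _ _ F) ∧
      Cfsg.IsInducedBySemilinearPOmega Qf g (RingEquiv.refl F) γ)
    (hγ2 : orderOf γ = 2) :
    let D := Cfsg.autSubgroupOf fun β : MulAut (Cfsg.POmega F Qf) =>
      ∃ g : GL (Fin m ⊕ Fin m) F, g ∈ Cfsg.Geo.quadSimilarityGroup (F := F) Qf ∧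
        Cfsg.PreservesSingularClasses Qf (g : Matrix _ _ F) ∧
        Cfsg.IsInducedBySemilinearPOmega Qf g (RingEquiv.refl F) β
    let I := Cfsg.Inn (Cfsg.POmega F Qf)
    (Cfsg.splitClassCount D I γ = 1 ∨ Cfsg.splitClassCount D I γ = 2) ∧
      (¬ (Odd m ∧ Fintype.card F % 4 = 3) → Cfsg.splitClassCount D I γ = 2) := by
  intro D I
  subst hQf
  have h2 := two_ne_zero_card hodd
  have H := evenOdd_plus (F := F) h2 hm
  have hD : D = (dSub H.ns m).map (A (qPlus m F)) :=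
    (inndiag_plus_eq m).trans (by rw [dSub_eq_ker_plus h2 hm])
  rw [hD]
  obtain ⟨g, hg, hnp, hind⟩ := hγ
  rw [show (RingEquiv.refl F : F ≃+* F) = ((1 : fieldSub (qPlus m F)) : F ≃+* F) from rfl,
    isInduced_iff' (g := ⟨g, hg⟩), map_one, mul_one] at hind
  have hgD : (⟨g, hg⟩ : GO (qPlus m F)) ∉ dSub H.ns m := by
    rw [dSub_eq_ker_plus h2 hm]
    exact fun h => hnp ((preserves_iff _ _ ⟨g, hg⟩).mpr h)
  have hsq : γ * γ = 1 := by
    have := pow_orderOf_eq_one γ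
    rwa [hγ2, pow_two] at this
  refine (count H hsq hind.symm hgD).imp id fun h hc => h fun _ => negOne_plus h2 hm hc

theorem split_minus (hodd : Odd (Fintype.card F)) (hm : 3 ≤ m) {a b : F} (hab : Aniso a b)
    (Qf : ((Fin m ⊕ Fin m) ⊕ Fin 2 → F) → F) (hQf : ⇑(qMinus m F a b) = Qf)
    (γ : MulAut (Cfsg.POmega F Qf))
    (hγ : γ ∉ Cfsg.autSubgroupOf fun β : MulAut (Cfsg.POmega F Qf) =>
      ∃ g : GL ((Fin m ⊕ Fin m) ⊕ Fin 2) F, g ∈ Cfsg.Geo.quadSimilarityGroup (F := F) Qf ∧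
        Cfsg.PreservesSingularClassesMinus m a b (g : Matrix _ _ F) ∧
        Cfsg.IsInducedBySemilinearPOmega Qf g (RingEquiv.refl F) β)
    (hγ2 : orderOf γ = 2) :
    let D := Cfsg.autSubgroupOf fun β : MulAut (Cfsg.POmega F Qf) =>
      ∃ g : GL ((Fin m ⊕ Fin m) ⊕ Fin 2) F, g ∈ Cfsg.Geo.quadSimilarityGroup (F := F) Qf ∧
        Cfsg.PreservesSingularClassesMinus m a b (g : Matrix _ _ F) ∧
        Cfsg.IsInducedBySemilinearPOmega Qf g (RingEquiv.refl F) β
    let I := Cfsg.Inn (Cfsg.POmega F Qf)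
    (Cfsg.splitClassCount D I γ = 1 ∨ Cfsg.splitClassCount D I γ = 2) ∧
      (¬ (Even m ∧ Fintype.card F % 4 = 1) → Cfsg.splitClassCount D I γ = 2) := by
  intro D I
  subst hQf
  have h2 := two_ne_zero_card hodd
  have H := evenOdd_minus (F := F) h2 hm hab
  have hD : D = (dSub H.ns (m + 1)).map (A (qMinus m F a b)) :=
    inndiag_minus_eq (m := m) h2 hab _ rfl
  rw [hD]
  obtain ⟨π, -, hker, hπ⟩ :=
    exists_projAut (good_qMinus (F := F) m hm hab) fun τ => exists_ssim_minus hab τ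
  have hsq : γ * γ = 1 := by
    have := pow_orderOf_eq_one γ
    rwa [hγ2, pow_two] at this
  obtain ⟨g, rfl⟩ : γ ∈ (A (qMinus m F a b)).range := by
    rw [← hker]
    exact Proj.Balance.MinusBalance.involution_proj_one hm h2 hab π hker hπ (by rw [pow_two, hsq])
  have hgD : g ∉ dSub H.ns (m + 1) := fun h => hγ (by
    show A _ g ∈ D
    rw [hD]
    exact ⟨g, h, rfl⟩)
  refine (count H hsq rfl hgD).imp id fun h hc => h fun ho => negOne_minus h2 hm hab ⟨?_, ?_⟩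
  · have := Nat.odd_add_one.mp ho
    exact Nat.not_odd_iff_even.mp this
  · have he : Even m := Nat.not_odd_iff_even.mp (Nat.odd_add_one.mp ho)
    have hq : Fintype.card F % 2 = 1 := Nat.odd_iff.mp hodd
    have : Fintype.card F % 4 ≠ 1 := fun h1 => hc ⟨he, h1⟩
    omega

end Cfsg.Agent.KnownB.OrthSplit
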