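import Cfsg.Agent.KnownB.Proj.Orth.Diag
import Cfsg.Agent.KnownB.Proj.Orth.Faith
import Cfsg.Agent.Forms.OrthGen
import Mathlib.FieldTheory.Finite.Basic

/-! Reflection pairs of non-square spinor norm commuting with a self-adjoint similarity of scalar
square. -/

set_option autoImplicit false
set_option maxHeartbeats 1000000

namespace Cfsg.Agent.KnownB.OrthSplit

open Matrix Module
open Cfsg.Agent.KnownB.Proj.Orth

universe u

variable {ι : Type} [Fintype ι] [DecidableEq ι] {F : Type u} [Field F] [Fintype F]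
  {Q : QuadraticForm F (ι → F)}

local notation "Vι" => (ι → F)
set_option quotPrecheck false in
local notation "𝐁" => QuadraticMap.polar ⇑Q

/-- A self-adjoint linear map with scalar square. -/
structure SA (Q : QuadraticForm F (ι → F)) (c : F) where
  two : (2 : F) ≠ 0
  nd : (QuadraticMap.polarBilin Q).Nondegenerate
  T : (ι → F) →ₗ[F] (ι → F)
  TT : ∀ v, T (T v) = c • v
  adj : ∀ u v, QuadraticMap.polar ⇑Q (T u) v = QuadraticMap.polar ⇑Q u (T v)

omit [Fintype ι] [DecidableEq ι] [Fintype F] in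
theorem polar_self_two (u : ι → F) : 𝐁 u u = 2 * Q u := by
  rw [QuadraticMap.polar_self, nsmul_eq_mul, Nat.cast_ofNat]

omit [DecidableEq ι] [Fintype F] in
/-- A self-adjoint idempotent with isotropic image vanishes. -/
theorem proj_eq_zero (hnd : (QuadraticMap.polarBilin Q).Nondegenerate)
    (π : Vι →ₗ[F] Vι) (hπ : ∀ x, π (π x) = π x) (hadj : ∀ u v, 𝐁 (π u) v = 𝐁 u (π v))
    (hiso : ∀ x, Q (π x) = 0) : π = 0 := by
  refine LinearMap.ext fun x => hnd.1 _ fun y => ?_
  show 𝐁 (π x) y = 0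
  rw [← hπ x, hadj, QuadraticMap.polar, ← map_add, hiso, hiso, hiso]
  ring

/-- Projection away from an orthogonal family of anisotropic vectors. -/
noncomputable def away (Q : QuadraticForm F (ι → F)) {r : ℕ} (e : Fin r → ι → F) :
    (ι → F) →ₗ[F] (ι → F) :=
  LinearMap.id - ∑ i, (QuadraticMap.polar ⇑Q (e i) (e i))⁻¹ •
    (((QuadraticMap.polarBilin Q) (e i)).smulRight (e i))

omit [DecidableEq ι] [Fintype F] in
theorem away_apply {r : ℕ} (e : Fin r → ι → F) (x : Vι) :
    away Q e x = x - ∑ i, ((𝐁 (e i) (e i))⁻¹ * 𝐁 (e i) x) • e i := by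
  simp [away, smul_smul]

/-- The next vector of an orthogonal family in the image of a projection. -/
theorem step (h2 : (2 : F) ≠ 0) (hnd : (QuadraticMap.polarBilin Q).Nondegenerate)
    (P : Vι →ₗ[F] Vι) (hP : ∀ x, P (P x) = P x) (hadj : ∀ u v, 𝐁 (P u) v = 𝐁 u (P v)) {r : ℕ}
    (e : Fin r → ι → F) (hfix : ∀ i, P (e i) = e i) (hne : ∀ i, Q (e i) ≠ 0)
    (horth : ∀ i k, i ≠ k → 𝐁 (e i) (e k) = 0) :
    (∃ w, P w = w ∧ Q w ≠ 0 ∧ ∀ i, 𝐁 (e i) w = 0) ∨
      LinearMap.range P ≤ Submodule.span F (Set.range e) := by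
  classical
  set R := away Q e with hR
  have hB0 : ∀ i, 𝐁 (e i) (e i) ≠ 0 := fun i => by
    rw [polar_self_two]; exact mul_ne_zero h2 (hne i)
  have hperp : ∀ i x, 𝐁 (e i) (R x) = 0 := fun i x => by
    rw [hR, away_apply]
    show (QuadraticMap.polarBilin Q) (e i) _ = 0
    rw [map_sub, map_sum, Finset.sum_eq_single i]
    · rw [map_smul, smul_eq_mul, QuadraticMap.polarBilin_apply_apply,
        QuadraticMap.polarBilin_apply_apply, mul_right_comm, inv_mul_cancel₀ (hB0 i), one_mul,
        sub_self]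
    · intro k _ hk
      simp [horth i k hk.symm]
    · simp
  have hadjR : ∀ u v, 𝐁 (R u) v = 𝐁 u (R v) := fun u v => by
    rw [hR, away_apply, away_apply]
    show (QuadraticMap.polarBilin Q) _ v = (QuadraticMap.polarBilin Q) u _
    rw [map_sub, map_sub, map_sum, map_sum, LinearMap.sub_apply, LinearMap.sum_apply]
    congr 1
    refine Finset.sum_congr rfl fun i _ => ?_
    simp only [map_smul, LinearMap.smul_apply, QuadraticMap.polarBilin_apply_apply, smul_eq_mul]
    rw [QuadraticMap.polar_comm _ u (e i)]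
    ring
  have hcomm : ∀ x, P (R x) = R (P x) := fun x => by
    rw [hR, away_apply, away_apply, map_sub, map_sum]
    congr 1
    refine Finset.sum_congr rfl fun i _ => ?_
    rw [map_smul, hfix, ← hadj, hfix]
  have hRR : ∀ x, R (R x) = R x := fun x => by
    conv_lhs => rw [hR, away_apply]
    rw [← hR]
    simp [hperp]
  by_cases h : ∀ x, Q (R (P x)) = 0
  · refine Or.inr ?_
    have h0 := proj_eq_zero hnd (R.comp P)
      (fun x => by simp only [LinearMap.comp_apply]; rw [hcomm, hP, hRR])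
      (fun u v => by simp only [LinearMap.comp_apply]; rw [hadjR, hadj, hcomm]) h
    rintro _ ⟨x, rfl⟩
    have h1 := LinearMap.congr_fun h0 x
    rw [LinearMap.comp_apply, LinearMap.zero_apply, hR, away_apply, sub_eq_zero] at h1
    rw [h1]
    exact Submodule.sum_mem _ fun i _ => Submodule.smul_mem _ _ (Submodule.subset_span ⟨i, rfl⟩)
  · push Not at h
    obtain ⟨x, hx⟩ := h
    exact Or.inl ⟨R (P x), by rw [hcomm, hP], hx, fun i => hperp i _⟩

/-- Three orthogonal anisotropic vectors in the image of a projection, unless it is small. -/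
theorem three_or_small (h2 : (2 : F) ≠ 0) (hnd : (QuadraticMap.polarBilin Q).Nondegenerate)
    (P : Vι →ₗ[F] Vι) (hP : ∀ x, P (P x) = P x) (hadj : ∀ u v, 𝐁 (P u) v = 𝐁 u (P v)) :
    (∃ u v w, P u = u ∧ P v = v ∧ P w = w ∧ Q u ≠ 0 ∧ Q v ≠ 0 ∧ Q w ≠ 0 ∧
      𝐁 u v = 0 ∧ 𝐁 u w = 0 ∧ 𝐁 v w = 0) ∨ finrank F (LinearMap.range P) ≤ 2 := by
  have small : ∀ {r : ℕ} (e : Fin r → ι → F), r ≤ 2 →
      LinearMap.range P ≤ Submodule.span F (Set.range e) → finrank F (LinearMap.range P) ≤ 2 :=
    fun {r} e hr hle => (Submodule.finrank_mono hle).trans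
      ((finrank_range_le_card e).trans (by simpa using hr))
  rcases step h2 hnd P hP hadj ![] (fun i => i.elim0) (fun i => i.elim0) (fun i => i.elim0) with
    ⟨u, hu, hu0, -⟩ | h
  swap; · exact Or.inr (small _ (by norm_num) h)
  rcases step h2 hnd P hP hadj ![u] (fun i => by fin_cases i; exact hu)
      (fun i => by fin_cases i; exact hu0) (fun i k hik => absurd (Subsingleton.elim i k) hik) with
    ⟨v, hv, hv0, huv⟩ | h
  swap; · exact Or.inr (small _ (by norm_num) h)
  have huv' : 𝐁 u v = 0 := huv 0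
  rcases step h2 hnd P hP hadj ![u, v] (fun i => by fin_cases i <;> assumption)
      (fun i => by fin_cases i <;> assumption)
      (fun i k hik => by
        fin_cases i <;> fin_cases k <;>
          first
            | exact absurd rfl hik
            | exact huv'
            | exact (QuadraticMap.polar_comm _ _ _).trans huv') with
    ⟨w, hw, hw0, hw'⟩ | h
  swap; · exact Or.inr (small _ (by norm_num) h)
  exact Or.inl ⟨u, v, w, hu, hv, hw, hu0, hv0, hw0, huv', hw' 0, hw' 1⟩

theorem exists_binary (h2 : (2 : F) ≠ 0) {a b : F} (ha : a ≠ 0) (hb : b ≠ 0) (d : F) :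
    ∃ x y : F, a * x ^ 2 + b * y ^ 2 = d := by
  have hodd : Fintype.card F % 2 = 1 := FiniteField.odd_card_of_char_ne_two fun h => h2 (by
    have := CharP.cast_eq_zero (R := F) (ringChar F)
    rw [h] at this
    simpa using this)
  obtain ⟨x, y, h⟩ := FiniteField.exists_root_sum_quadratic
    (f := Polynomial.C a * Polynomial.X ^ 2) (g := Polynomial.C b * Polynomial.X ^ 2 - Polynomial.C d)
    (Polynomial.degree_C_mul_X_pow 2 ha)
    (by
      rw [Polynomial.degree_sub_eq_left_of_degree_lt] <;> rw [Polynomial.degree_C_mul_X_pow 2 hb]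
      · rfl
      · exact lt_of_le_of_lt Polynomial.degree_C_le (by norm_num))
    hodd
  exact ⟨x, y, by simp at h; linear_combination h⟩

/-- An orthogonal pair in one image with non-square product of values. -/
theorem exists_nonsquare_pair (h2 : (2 : F) ≠ 0) {u v w : Vι} (hu : Q u ≠ 0) (hv : Q v ≠ 0)
    (hw : Q w ≠ 0) (huv : 𝐁 u v = 0) (huw : 𝐁 u w = 0) (hvw : 𝐁 v w = 0) :
    ∃ e f : Vι, e ∈ Submodule.span F {u, v} ∧ (f = v ∨ f = w) ∧ Q e ≠ 0 ∧ Q f ≠ 0 ∧
      𝐁 e f = 0 ∧ ¬ IsSquare (Q e * Q f) := by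
  by_cases hsq : ¬ IsSquare (Q u * Q v)
  · exact ⟨u, v, Submodule.subset_span (by simp), Or.inl rfl, hu, hv, huv, hsq⟩
  obtain ⟨δ, hδ⟩ := Forms.exists_nonsquare_of_two_ne_zero (F := F) h2
  have hδ0 : δ ≠ 0 := fun h => hδ (h ▸ IsSquare.zero)
  obtain ⟨x, y, hxy⟩ := exists_binary h2 hu hv (δ / Q w)
  set e := x • u + y • v with he
  have hQe : Q e = δ / Q w := by
    rw [he, QuadraticMap.map_add (⇑Q), QuadraticMap.map_smul, QuadraticMap.map_smul,
      QuadraticMap.polar_smul_left, QuadraticMap.polar_smul_right, huv, smul_zero, smul_zero,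
      add_zero, smul_eq_mul, smul_eq_mul, ← hxy]
    ring
  refine ⟨e, w, ?_, Or.inr rfl, by rw [hQe]; exact div_ne_zero hδ0 hw, hw, ?_, ?_⟩
  · exact add_mem (Submodule.smul_mem _ _ (Submodule.subset_span (by simp)))
      (Submodule.smul_mem _ _ (Submodule.subset_span (by simp)))
  · rw [he, QuadraticMap.polar_add_left, QuadraticMap.polar_smul_left,
      QuadraticMap.polar_smul_left, huw, hvw, smul_zero, smul_zero, add_zero]
  · rwa [hQe, div_mul_cancel₀ _ hw]

/-- The composite of two reflections. -/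
noncomputable def pairMap (Q : QuadraticForm F (ι → F)) (U W : ι → F) (x : ι → F) : ι → F :=
  x - ((Q U)⁻¹ * QuadraticMap.polar ⇑Q U x) • U - ((Q W)⁻¹ * QuadraticMap.polar ⇑Q W x) • W

namespace SA

variable {c : F} (S : SA Q c)
include S

/-- Square scalar: eigenvectors. -/
theorem pair_split (hdim : 5 ≤ Fintype.card ι) {t : F} (ht : t * t = c) (ht0 : t ≠ 0) :
    ∃ U W, Q U ≠ 0 ∧ Q W ≠ 0 ∧ 𝐁 U W = 0 ∧ ¬ IsSquare (Q U * Q W) ∧
      ∀ x, S.T (pairMap Q U W x) = pairMap Q U W (S.T x) := by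
  have h2 := S.two
  let P : F → Vι →ₗ[F] Vι := fun s => (2 : F)⁻¹ • (LinearMap.id + s⁻¹ • S.T)
  have hP : ∀ s x, P s x = (2 : F)⁻¹ • (x + s⁻¹ • S.T x) := fun _ _ => rfl
  have hTP : ∀ s, s * s = c → s ≠ 0 → ∀ x, S.T (P s x) = s • P s x := fun s hs hs0 x => by
    have hsc : s⁻¹ * c = s := by rw [← hs, ← mul_assoc, inv_mul_cancel₀ hs0, one_mul]
    rw [hP, map_smul, map_add, map_smul, S.TT, smul_smul (a₁ := s⁻¹), hsc]
    match_scalars <;> field_simp
  have hPP : ∀ s, s * s = c → s ≠ 0 → ∀ x, P s (P s x) = P s x := fun s hs hs0 x => by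
    conv_lhs => rw [hP, hTP s hs hs0, smul_smul, inv_mul_cancel₀ hs0, one_smul, ← two_smul F,
      smul_smul, inv_mul_cancel₀ h2, one_smul]
  have hPadj : ∀ s u v, 𝐁 (P s u) v = 𝐁 u (P s v) := fun s u v => by
    rw [hP, hP, QuadraticMap.polar_smul_left, QuadraticMap.polar_add_left,
      QuadraticMap.polar_smul_left, QuadraticMap.polar_smul_right, QuadraticMap.polar_add_right,
      QuadraticMap.polar_smul_right, S.adj]
  -- the eigenvector reflections commute with `T`
  have finish : ∀ s, s * s = c → s ≠ 0 → ∀ U W, P s U = U → P s W = W → ∀ x,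
      S.T (pairMap Q U W x) = pairMap Q U W (S.T x) := fun s hs hs0 U W hU hW x => by
    have eU : S.T U = s • U := by conv_lhs => rw [← hU]; rw [hTP s hs hs0, hU]
    have eW : S.T W = s • W := by conv_lhs => rw [← hW]; rw [hTP s hs hs0, hW]
    have bU : 𝐁 U (S.T x) = s * 𝐁 U x := by
      rw [← S.adj, eU, QuadraticMap.polar_smul_left, smul_eq_mul]
    have bW : 𝐁 W (S.T x) = s * 𝐁 W x := by
      rw [← S.adj, eW, QuadraticMap.polar_smul_left, smul_eq_mul]
    simp only [pairMap, map_sub, map_smul, eU, eW, bU, bW, smul_smul]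
    congr 1
    · congr 1; congr 1; ring
    · congr 1; ring
  have main : ∀ s, s * s = c → s ≠ 0 →
      (∃ u v w, P s u = u ∧ P s v = v ∧ P s w = w ∧ Q u ≠ 0 ∧ Q v ≠ 0 ∧ Q w ≠ 0 ∧
        𝐁 u v = 0 ∧ 𝐁 u w = 0 ∧ 𝐁 v w = 0) →
      ∃ U W, Q U ≠ 0 ∧ Q W ≠ 0 ∧ 𝐁 U W = 0 ∧ ¬ IsSquare (Q U * Q W) ∧
        ∀ x, S.T (pairMap Q U W x) = pairMap Q U W (S.T x) := by
    rintro s hs hs0 ⟨u, v, w, hu, hv, hw, hu0, hv0, hw0, huv, huw, hvw⟩
    obtain ⟨e, f, he, hf, he0, hf0, hef, hns⟩ :=
      exists_nonsquare_pair h2 hu0 hv0 hw0 huv huw hvw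
    have he' : P s e = e := by
      obtain ⟨x, y, rfl⟩ := Submodule.mem_span_pair.mp he
      rw [map_add, map_smul, map_smul, hu, hv]
    have hf' : P s f = f := by rcases hf with rfl | rfl <;> assumption
    exact ⟨e, f, he0, hf0, hef, hns, finish s hs hs0 e f he' hf'⟩
  have hnt : (-t) * (-t) = c := by rw [neg_mul_neg, ht]
  rcases three_or_small h2 S.nd (P t) (hPP t ht ht0) (hPadj t) with h | h
  · exact main t ht ht0 h
  rcases three_or_small h2 S.nd (P (-t)) (hPP (-t) hnt (neg_ne_zero.2 ht0)) (hPadj (-t)) with h' | h'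
  · exact main (-t) hnt (neg_ne_zero.2 ht0) h'
  exfalso
  have htop : (⊤ : Submodule F Vι) ≤ LinearMap.range (P t) ⊔ LinearMap.range (P (-t)) := by
    intro x _
    refine Submodule.mem_sup.mpr ⟨_, ⟨x, rfl⟩, _, ⟨x, rfl⟩, ?_⟩
    rw [hP, hP, inv_neg, neg_smul, ← smul_add]
    rw [show x + t⁻¹ • S.T x + (x + -(t⁻¹ • S.T x)) = (2 : F) • x by rw [two_smul]; abel,
      smul_smul, inv_mul_cancel₀ h2, one_smul]
  have h4 := Submodule.finrank_mono htop
  have h5 := Submodule.finrank_add_le_finrank_add_finrank (LinearMap.range (P t))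
    (LinearMap.range (P (-t)))
  rw [finrank_top, Module.finrank_fintype_fun_eq_card] at h4
  omega

/-- Non-square scalar: a vector orthogonal to its image. -/
theorem pair_nonsplit (hdim : 5 ≤ Fintype.card ι) (hc : ¬ IsSquare c) :
    ∃ U W, Q U ≠ 0 ∧ Q W ≠ 0 ∧ 𝐁 U W = 0 ∧ ¬ IsSquare (Q U * Q W) ∧
      ∀ x, S.T (pairMap Q U W x) = pairMap Q U W (S.T x) := by
  have h2 := S.two
  have hc0 : c ≠ 0 := fun h => hc (h ▸ IsSquare.zero)
  suffices h : ∃ u, Q u ≠ 0 ∧ 𝐁 u (S.T u) = 0 by
    obtain ⟨u, hu, huT⟩ := h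
    have hQT : Q (S.T u) = c * Q u := by
      refine mul_left_cancel₀ h2 ?_
      rw [← polar_self_two (Q := Q), S.adj, S.TT, QuadraticMap.polar_smul_right, polar_self_two,
        smul_eq_mul]
      ring
    refine ⟨u, S.T u, hu, by rw [hQT]; exact mul_ne_zero hc0 hu, huT, ?_, fun x => ?_⟩
    · rw [hQT]
      rintro ⟨s, hs⟩
      exact hc ⟨s / Q u, by field_simp; linear_combination hs⟩
    · have b1 : 𝐁 u (S.T x) = 𝐁 (S.T u) x := (S.adj u x).symm
      have b2 : 𝐁 (S.T u) (S.T x) = c * 𝐁 u x := by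
        rw [S.adj, S.TT, QuadraticMap.polar_smul_right, smul_eq_mul]
      simp only [pairMap, map_sub, map_smul, S.TT, hQT, b1, b2, smul_smul]
      rw [sub_right_comm]
      congr 1
      · congr 1; congr 1; field_simp
      · congr 1; field_simp
  -- values `H u = (p, r)` with `p = B(u,u)`, `r = B(u, T u)`
  by_contra hno
  push Not at hno
  obtain ⟨u, hu⟩ : ∃ u, Q u ≠ 0 := by
    by_contra hq
    push Not at hq
    have h0 := proj_eq_zero S.nd (LinearMap.id : Vι →ₗ[F] Vι) (fun _ => rfl) (fun _ _ => rfl)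
      (fun x => hq x)
    obtain ⟨i⟩ : Nonempty ι := Fintype.card_pos_iff.mp (by omega)
    have := congrFun (LinearMap.congr_fun h0 (Pi.single i 1)) i
    simp at this
  -- rotate: vectors `a u + b T u`
  have hB1 : ∀ (w : Vι) (a b : F), 𝐁 (a • w + b • S.T w) (a • w + b • S.T w) =
      a ^ 2 * 𝐁 w w + 2 * a * b * 𝐁 w (S.T w) + b ^ 2 * c * 𝐁 w w := fun w a b => by
    simp only [QuadraticMap.polar_add_left, QuadraticMap.polar_add_right,
      QuadraticMap.polar_smul_left, QuadraticMap.polar_smul_right, smul_eq_mul, S.adj, S.TT]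
    ring
  have hB2 : ∀ (w : Vι) (a b : F), 𝐁 (a • w + b • S.T w) (S.T (a • w + b • S.T w)) =
      a ^ 2 * 𝐁 w (S.T w) + 2 * a * b * c * 𝐁 w w + b ^ 2 * c * 𝐁 w (S.T w) := fun w a b => by
    rw [map_add, map_smul, map_smul, S.TT]
    simp only [QuadraticMap.polar_add_left, QuadraticMap.polar_add_right,
      QuadraticMap.polar_smul_left, QuadraticMap.polar_smul_right, smul_eq_mul, S.adj, S.TT]
    ring
  -- a second vector, orthogonal to `u` and `T u`
  set p := 𝐁 u u with hp
  set r := 𝐁 u (S.T u) with hr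
  set D := p * (c * p) - r * r with hD
  have hp0 : p ≠ 0 := by rw [hp, polar_self_two]; exact mul_ne_zero h2 hu
  have hD0 : D ≠ 0 := fun h => hc ⟨r / p, by field_simp; linear_combination h⟩
  let R : Vι →ₗ[F] Vι := LinearMap.id
    - D⁻¹ • (((c * p) • (QuadraticMap.polarBilin Q u) -
        r • (QuadraticMap.polarBilin Q (S.T u))).smulRight u)
    - D⁻¹ • ((p • (QuadraticMap.polarBilin Q (S.T u)) -
        r • (QuadraticMap.polarBilin Q u)).smulRight (S.T u))
  have hRx : ∀ x, R x = x - (D⁻¹ * (c * p * 𝐁 u x - r * 𝐁 (S.T u) x)) • u -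
      (D⁻¹ * (p * 𝐁 (S.T u) x - r * 𝐁 u x)) • S.T u := fun x => by
    simp [R, smul_smul]
  have hTu : 𝐁 (S.T u) (S.T u) = c * p := by
    rw [S.adj, S.TT, QuadraticMap.polar_smul_right, smul_eq_mul]
  have hTuu : 𝐁 (S.T u) u = r := by rw [QuadraticMap.polar_comm]
  have hperp1 : ∀ x, 𝐁 u (R x) = 0 := fun x => by
    rw [hRx]
    simp only [sub_eq_add_neg, ← neg_smul, QuadraticMap.polar_add_right,
      QuadraticMap.polar_smul_right, smul_eq_mul, ← hp, ← hr]
    field_simp
    rw [hD]
    ring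
  have hperp2 : ∀ x, 𝐁 (S.T u) (R x) = 0 := fun x => by
    rw [hRx]
    simp only [sub_eq_add_neg, ← neg_smul, QuadraticMap.polar_add_right,
      QuadraticMap.polar_smul_right, smul_eq_mul, hTu, hTuu]
    field_simp
    rw [hD]
    ring
  have hRadj : ∀ x y, 𝐁 (R x) y = 𝐁 x (R y) := fun x y => by
    rw [hRx, hRx]
    simp only [sub_eq_add_neg, ← neg_smul, QuadraticMap.polar_add_left,
      QuadraticMap.polar_add_right, QuadraticMap.polar_smul_left, QuadraticMap.polar_smul_right,
      smul_eq_mul]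
    rw [QuadraticMap.polar_comm _ x u, QuadraticMap.polar_comm _ x (S.T u)]
    ring
  have hRR : ∀ x, R (R x) = R x := fun x => by
    conv_lhs => rw [hRx, hperp1, hperp2]
    simp
  obtain ⟨x, hx⟩ : ∃ x, Q (R x) ≠ 0 := by
    by_contra hall
    push Not at hall
    have h0 := proj_eq_zero S.nd R hRR hRadj hall
    have hle : (⊤ : Submodule F Vι) ≤ Submodule.span F (Set.range ![u, S.T u]) := fun y _ => by
      have e := LinearMap.congr_fun h0 y
      rw [hRx, LinearMap.zero_apply, sub_sub, sub_eq_zero] at e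
      rw [e]
      exact add_mem (Submodule.smul_mem _ _ (Submodule.subset_span ⟨0, rfl⟩))
        (Submodule.smul_mem _ _ (Submodule.subset_span ⟨1, rfl⟩))
    have h4 := (Submodule.finrank_mono hle).trans (finrank_range_le_card _)
    rw [finrank_top, Module.finrank_fintype_fun_eq_card, Fintype.card_fin] at h4
    omega
  set v := R x with hv
  -- orthogonal combinations of the two planes
  have hv1 : 𝐁 u v = 0 := hperp1 x
  have hv2 : 𝐁 (S.T u) v = 0 := hperp2 x
  set p' := 𝐁 v v with hp'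
  set r' := 𝐁 v (S.T v) with hr'
  have hp'0 : p' ≠ 0 := by rw [hp', polar_self_two]; exact mul_ne_zero h2 hx
  -- find `z` in the plane of `u` and `y` in that of `v` with cancelling second values
  have hcase : ∀ a b a' b' : F,
      (a ^ 2 * r + 2 * a * b * c * p + b ^ 2 * c * r) +
        (a' ^ 2 * r' + 2 * a' * b' * c * p' + b' ^ 2 * c * r') = 0 →
      (a ^ 2 * p + 2 * a * b * r + b ^ 2 * c * p) +
        (a' ^ 2 * p' + 2 * a' * b' * r' + b' ^ 2 * c * p') = 0 := by
    intro a b a' b' h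
    set z := a • u + b • S.T u with hz
    set y := a' • v + b' • S.T v with hy
    clear_value z y
    have hzy : 𝐁 z y = 0 := by
      have e : 𝐁 u (S.T v) = 0 := by rw [← S.adj]; exact hv2
      have e' : 𝐁 (S.T u) (S.T v) = 0 := by
        rw [S.adj, S.TT, QuadraticMap.polar_smul_right, hv1, smul_zero]
      simp [hz, hy, hv1, hv2, e, e', QuadraticMap.polar_add_left, QuadraticMap.polar_add_right,
        QuadraticMap.polar_smul_left, QuadraticMap.polar_smul_right]
    have hzTy : 𝐁 z (S.T y) = 0 := by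
      have e : 𝐁 u (S.T v) = 0 := by rw [← S.adj]; exact hv2
      have e' : 𝐁 (S.T u) (S.T v) = 0 := by
        rw [S.adj, S.TT, QuadraticMap.polar_smul_right, hv1, smul_zero]
      simp [hz, hy, hv1, hv2, e, e', S.TT, map_add, map_smul, QuadraticMap.polar_add_left,
        QuadraticMap.polar_add_right, QuadraticMap.polar_smul_left, QuadraticMap.polar_smul_right]
    have h2' : 𝐁 (z + y) (S.T (z + y)) = 0 := by
      rw [map_add, QuadraticMap.polar_add_left, QuadraticMap.polar_add_right,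
        QuadraticMap.polar_add_right, hz, hy, hB2, hB2, ← hz, ← hy, hzTy,
        QuadraticMap.polar_comm _ y (S.T z), S.adj, hzTy, ← hr, ← hp, ← hr', ← hp']
      linear_combination h
    by_contra hne
    refine hno (z + y) ?_ h2'
    intro h0
    refine hne ?_
    have e := polar_self_two (Q := Q) (z + y)
    rw [h0, mul_zero, QuadraticMap.polar_add_left, QuadraticMap.polar_add_right,
      QuadraticMap.polar_add_right, QuadraticMap.polar_comm _ y z, hzy, hz, hy, hB1, hB1,
      ← hr, ← hp, ← hr', ← hp'] at e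
    linear_combination e
  have h10 := hcase 1 0 0 0
  have h01 := hcase 0 0 1 0
  have hr0 : r ≠ 0 := fun h => hp0 (by
    have := h10 (by rw [h]; ring)
    linear_combination this)
  have hr'0 : r' ≠ 0 := fun h => hp'0 (by
    have := h01 (by rw [h]; ring)
    linear_combination this)
  -- the plane of `u` represents every value of its second form
  have hrep : ∀ d, ∃ a b : F, a ^ 2 * r + 2 * a * b * c * p + b ^ 2 * c * r = d := by
    intro d
    have hE : c * r - (c * p) ^ 2 / r ≠ 0 := fun h => hD0 (by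
      rw [hD]
      have : c * (r * r - c * (p * p)) = 0 := by
        field_simp at h
        linear_combination h
      rcases mul_eq_zero.mp this with h' | h'
      · exact absurd h' hc0
      · linear_combination -h')
    obtain ⟨X, Y, hXY⟩ := exists_binary h2 hr0 hE d
    exact ⟨X - Y * (c * p) / r, Y, by rw [← hXY]; field_simp; ring⟩
  obtain ⟨a, b, hab⟩ := hrep (-r')
  -- the two other points on the same level set
  have e1 := hcase a b 1 0 (by linear_combination hab)
  have e2 := hcase (-a - 2 * b * c * p / r) b 1 0 (by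
    field_simp
    linear_combination r * hab)
  have e3 := hcase a (-b - 2 * a * p / r) 1 0 (by
    field_simp
    linear_combination r * hab)
  have h4 : (4 : F) ≠ 0 := by
    rw [show (4 : F) = 2 * 2 by norm_num]
    exact mul_ne_zero h2 h2
  have hA : b = 0 ∨ a * r + b * c * p = 0 := by
    have hX : (-a - 2 * b * c * p / r) * r = -a * r - 2 * b * c * p := by field_simp
    generalize -a - 2 * b * c * p / r = X at e2 hX
    have : b * (a * r + b * c * p) * D = 0 := mul_left_cancel₀ h4 (by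
      rw [hD]
      linear_combination r ^ 2 * e2 - r ^ 2 * e1 -
        ((X * r + (-a * r - 2 * b * c * p)) * p + 2 * b * r ^ 2) * hX)
    rcases mul_eq_zero.mp this with h | h
    · exact mul_eq_zero.mp h
    · exact absurd h hD0
  have hB : a = 0 ∨ b * r + a * p = 0 := by
    have hX : (-b - 2 * a * p / r) * r = -b * r - 2 * a * p := by field_simp
    generalize -b - 2 * a * p / r = X at e3 hX
    have : a * (b * r + a * p) * D = 0 := mul_left_cancel₀ h4 (by
      rw [hD]
      linear_combination r ^ 2 * e3 - r ^ 2 * e1 -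
        ((X * r + (-b * r - 2 * a * p)) * (c * p) + 2 * a * r ^ 2) * hX)
    rcases mul_eq_zero.mp this with h | h
    · exact mul_eq_zero.mp h
    · exact absurd h hD0
  have hab0 : a = 0 ∧ b = 0 := by
    rcases hA with hb | hA <;> rcases hB with ha | hB
    · exact ⟨ha, hb⟩
    · refine ⟨?_, hb⟩
      rw [hb, zero_mul, zero_add] at hB
      exact (mul_eq_zero.mp hB).resolve_right hp0
    · refine ⟨ha, ?_⟩
      rw [ha, zero_mul, zero_add] at hA
      exact (mul_eq_zero.mp ((mul_eq_zero.mp hA).resolve_right hp0)).resolve_right hc0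
    · have hb : b = 0 := by
        have : b * D = 0 := by rw [hD]; linear_combination p * hA - r * hB
        exact (mul_eq_zero.mp this).resolve_right hD0
      refine ⟨?_, hb⟩
      rw [hb, zero_mul, zero_add] at hB
      exact (mul_eq_zero.mp hB).resolve_right hp0
  rw [hab0.1, hab0.2] at hab
  exact hr'0 (by linear_combination hab)

end SA

end Cfsg.Agent.KnownB.OrthSplit
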