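import Cfsg.Agent.KnownB.OrthSplit.Commuting
import Cfsg.Agent.KnownB.Proj.Balance.OrthGraphBase
import Cfsg.Agent.KnownB.Proj.Orth.DiagResults
import Cfsg.Agent.KnownB.AutPSL.Twist

/-! The splitting of the inner-diagonal class of a graph involution of an orthogonal group in even
dimension and odd characteristic. -/

set_option autoImplicit false
set_option maxHeartbeats 1000000

namespace Cfsg.Agent.KnownB.OrthSplit

open Matrix Module
open Cfsg.Agent.KnownB.Proj.Orth

universe u

variable {ι : Type} [Fintype ι] [DecidableEq ι] {F : Type u} [Field F] [Fintype F]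
  {Q : QuadraticForm F (ι → F)}

local notation "Vι" => (ι → F)
local notation "Mι" => Matrix ι ι F

/-- The inclusion of the orthogonal group into the similarities. -/
noncomputable def orthInc (Q : QuadraticForm F (ι → F)) : Forms.orthGroup Q →* GO Q :=
  (isoInc Q).comp (Forms.isometryEquiv Q).symm.toMonoidHom

omit [Fintype F] in
theorem orthInc_mulVec (r : Forms.orthGroup Q) (v : Vι) :
    ((orthInc Q r).1 : Mι) *ᵥ v = (r : Vι ≃ₗ[F] Vι) v := by
  show (((Forms.isometryEquiv Q).symm r : GL ι F) : Mι) *ᵥ v = _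
  rw [← Forms.isometryEquiv_apply, MulEquiv.apply_symm_apply]

omit [Fintype F] in
theorem orthInc_injective : Function.Injective (orthInc Q) := fun r s h =>
  Forms.orth_ext fun x => by rw [← orthInc_mulVec, ← orthInc_mulVec, h]

omit [Fintype F] in
theorem orthInc_det (r : Forms.orthGroup Q) : detGO (orthInc Q r) = Forms.orthDet Q r := by
  refine Units.ext ?_
  rw [detGO_val]
  show (((Forms.isometryEquiv Q).symm r : GL ι F) : Mι).det = _
  rw [← Forms.det_isometryEquiv, MulEquiv.apply_symm_apply]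

omit [Fintype F] in
theorem orthInc_negOne : orthInc Q (Forms.negOne Q) = sc Q (-1) := go_ext fun x => by
  rw [orthInc_mulVec, Forms.negOne_apply, sc_mulVec, Units.val_neg, Units.val_one, neg_smul, one_smul]

section

variable {k : ℕ} (H : EvenOdd Q k)
include H

omit [Fintype F] in
theorem sim_orthInc (r : Forms.orthGroup Q) : sim H.ns (orthInc Q r) = 1 := sim_isoInc H.ns _

omit [Fintype F] in
theorem exists_orth {x : GO Q} (hx : sim H.ns x = 1) : ∃ r, x = orthInc Q r := by
  rw [← MonoidHom.mem_ker, sim_ker] at hx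
  obtain ⟨s, rfl⟩ := hx
  exact ⟨Forms.isometryEquiv Q s, congrArg (isoInc Q) (MulEquiv.symm_apply_apply _ s).symm⟩

/-- An isometry of determinant one and trivial spinor norm induces an inner automorphism. -/
theorem inn_of_spinor {r : Forms.orthGroup Q} (hd : Forms.orthDet Q r = 1)
    (hs : Forms.spinor Q H.two r = 1) :
    A Q (orthInc Q r) ∈ Cfsg.Inn (Cfsg.POmega F ⇑Q) := by
  rw [Inn_eq_map]
  refine ⟨_, ⟨(Forms.isometryEquiv Q).symm r, ?_, rfl⟩, rfl⟩
  rw [SetLike.mem_coe, Forms.mem_omega_iff, MulEquiv.apply_symm_apply,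
    Forms.mem_commutator_iff H.two H.nd
      (by rw [Module.finrank_fintype_fun_eq_card]; have := H.dim; omega)]
  exact ⟨hd, hs⟩

omit [Fintype F] in
theorem conj_reflection (x : GO Q) {v : Vι} :
    x * orthInc Q (Forms.reflection Q v) =
      orthInc Q (Forms.reflection Q ((x.1 : Mι) *ᵥ v)) * x := by
  refine go_ext fun w => ?_
  show ((x.1 * (orthInc Q (Forms.reflection Q v)).1 : GL ι F) : Mι) *ᵥ w =
    (((orthInc Q (Forms.reflection Q ((x.1 : Mι) *ᵥ v))).1 * x.1 : GL ι F) : Mι) *ᵥ w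
  rw [Units.val_mul, Units.val_mul, ← Matrix.mulVec_mulVec, ← Matrix.mulVec_mulVec, orthInc_mulVec,
    orthInc_mulVec, Forms.reflection_apply, Forms.reflection_apply, Matrix.mulVec_sub,
    Matrix.mulVec_smul]
  congr 2
  have hμ := (sim H.ns x).ne_zero
  simp only [QuadraticMap.polar, ← Matrix.mulVec_add, sim_spec H.ns x]
  rw [_root_.mul_inv, show (sim H.ns x : F) * Q (v + w) - (sim H.ns x : F) * Q v -
      (sim H.ns x : F) * Q w = (sim H.ns x : F) * (Q (v + w) - Q v - Q w) by ring,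
    mul_mul_mul_comm, inv_mul_cancel₀ hμ, one_mul]

/-- Conjugation by a similarity of non-square multiplier multiplies the spinor norm by the
determinant. -/
theorem spinor_conj {x : GO Q} (hx : ¬ IsSquare (sim H.ns x : F)) (r : Forms.orthGroup Q) :
    ∃ r', x * orthInc Q r = orthInc Q r' * x ∧
      Units.map (Int.castRingHom F).toMonoidHom (Forms.spinor Q H.two r' * Forms.spinor Q H.two r) =
        Forms.orthDet Q r := by
  classical
  have hmem : r ∈ Subgroup.closure (Forms.reflectionSet Q) := by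
    rw [Forms.closure_reflectionSet_odd H.two Q H.nd]; exact Subgroup.mem_top _
  induction hmem using Subgroup.closure_induction with
  | mem r hr =>
    obtain ⟨v, hv, rfl⟩ := hr
    refine ⟨_, conj_reflection H x, ?_⟩
    have hxv : Q ((x.1 : Mι) *ᵥ v) = (sim H.ns x : F) * Q v := sim_spec H.ns x v
    have hxv0 : Q ((x.1 : Mι) *ᵥ v) ≠ 0 := by
      rw [hxv]; exact mul_ne_zero (Units.ne_zero _) hv
    have hu := Forms.spinor_reflection H.two H.nd hv
    have hw := Forms.spinor_reflection H.two H.nd hxv0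
    have hprod : Forms.spinor Q H.two (Forms.reflection Q ((x.1 : Mι) *ᵥ v)) *
        Forms.spinor Q H.two (Forms.reflection Q v) = -1 := by
      by_cases hq : IsSquare (Q v)
      · have : ¬ IsSquare (Q ((x.1 : Mι) *ᵥ v)) := fun h => hx (by
          rw [hxv] at h
          have := h.div hq
          rwa [mul_div_cancel_right₀ _ hv] at this)
        rw [hu.1 hq, hw.2 this, mul_one]
      · have : IsSquare (Q ((x.1 : Mι) *ᵥ v)) := by
          rw [hxv]
          exact (binary_isSquare_mul_not (Units.ne_zero _) hq).mpr hx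
        rw [hu.2 hq, hw.1 this, one_mul]
    rw [hprod]
    refine Units.ext ?_
    rw [Forms.orthDet_reflection Q hv]
    simp
  | one => exact ⟨1, by simp, by simp⟩
  | mul r s _ _ hr hs =>
    obtain ⟨r', e1, f1⟩ := hr
    obtain ⟨s', e2, f2⟩ := hs
    refine ⟨r' * s', ?_, ?_⟩
    · rw [map_mul, map_mul, ← mul_assoc, e1, mul_assoc, e2, mul_assoc]
    · rw [map_mul (Forms.orthDet Q), ← f1, ← f2, map_mul (Forms.spinor Q H.two),
        map_mul (Forms.spinor Q H.two), mul_mul_mul_comm, map_mul]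
  | inv r _ hr =>
    obtain ⟨r', e1, f1⟩ := hr
    refine ⟨r'⁻¹, ?_, ?_⟩
    · rw [map_inv, map_inv, eq_inv_mul_iff_mul_eq, ← mul_assoc, ← e1, mul_inv_cancel_right]
    · rw [map_inv (Forms.orthDet Q), ← f1, map_inv (Forms.spinor Q H.two),
        map_inv (Forms.spinor Q H.two), ← _root_.mul_inv, map_inv]

/-- No isometry of determinant `-1` is sent to a multiple of trivial spinor norm. -/
theorem no_twist {x : GO Q} (hx : ¬ IsSquare (sim H.ns x : F)) {r E : Forms.orthGroup Q}
    (hr : Forms.orthDet Q r ≠ 1) (hE : Forms.spinor Q H.two E = 1)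
    (he : x * orthInc Q r = orthInc Q (E * r) * x) : False := by
  obtain ⟨r', e1, f1⟩ := spinor_conj H hx r
  have : r' = E * r := orthInc_injective (mul_right_cancel (e1.symm.trans he))
  rw [this, map_mul (Forms.spinor Q H.two), hE, one_mul, Int.units_mul_self, map_one] at f1
  exact hr f1.symm

/-- The standard facts of a similarity inducing an involution outside the inner-diagonal group. -/
theorem graph_facts {g : GO Q} (hg : g ∉ dSub H.ns k) (hg2 : A Q g * A Q g = 1) :
    ∃ c : Fˣ, g * g = sc Q c ∧ sim H.ns g = c ∧ ∀ u v, QuadraticMap.polar ⇑Q ((g.1 : Mι) *ᵥ u) v =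
      QuadraticMap.polar ⇑Q u ((g.1 : Mι) *ᵥ v) := by
  obtain ⟨c, hc⟩ := (A_eq_one_iff' H.nd H.dim (g * g)).mp (by rw [map_mul, hg2])
  refine ⟨c, hc.symm, ?_⟩
  set μ := sim H.ns g with hμ
  have hgg : ∀ v, (g.1 : Mι) *ᵥ ((g.1 : Mι) *ᵥ v) = (c : F) • v := fun v => by
    rw [← sc_mulVec (Q := Q) c v, hc]
    show _ = ((g.1 * g.1 : GL ι F) : Mι) *ᵥ v
    rw [Units.val_mul, ← Matrix.mulVec_mulVec]
  have hB : ∀ u v, (c : F) * QuadraticMap.polar ⇑Q ((g.1 : Mι) *ᵥ u) v =
      (μ : F) * QuadraticMap.polar ⇑Q u ((g.1 : Mι) *ᵥ v) := fun u v => by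
    rw [← smul_eq_mul, ← QuadraticMap.polar_smul_right, ← hgg v]
    simp only [QuadraticMap.polar, ← Matrix.mulVec_add, sim_spec H.ns]
    ring
  have hsq : (μ : F) * μ = c * c := by
    rw [← Units.val_mul, ← Units.val_mul, ← sim_sc H.ns c, hc, map_mul]
  rcases mul_self_eq_mul_self_iff.mp hsq with h | h
  · refine ⟨Units.ext h, fun u v => mul_left_cancel₀ c.ne_zero ?_⟩
    rw [hB, h]
  exfalso
  set B : LinearMap.BilinForm F Vι := QuadraticMap.polarBilin Q with hBdef
  set J := LinearMap.BilinForm.toMatrix' B with hJd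
  have hJ : J.det ≠ 0 := LinearMap.BilinForm.nondegenerate_iff_det_ne_zero (Pi.basisFun F ι) |>.mp
    H.nd |> fun h => by rwa [LinearMap.BilinForm.toMatrix_basisFun] at h
  have hs : (g.1 : Mι).transpose * J = -(J * (g.1 : Mι)) := by
    have e : B.compLeft (Matrix.toLin' (g.1 : Mι)) = B.compRight (Matrix.toLin' (-(g.1 : Mι))) := by
      refine LinearMap.BilinForm.ext fun u v => ?_
      show QuadraticMap.polar ⇑Q ((g.1 : Mι) *ᵥ u) v =
        QuadraticMap.polar ⇑Q u ((-(g.1 : Mι)) *ᵥ v)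
      rw [Matrix.neg_mulVec, ← neg_one_smul F ((g.1 : Mι) *ᵥ v), QuadraticMap.polar_smul_right,
        smul_eq_mul]
      refine mul_left_cancel₀ c.ne_zero ?_
      rw [hB, h]; ring
    have e2 := congrArg LinearMap.BilinForm.toMatrix' e
    rwa [LinearMap.BilinForm.toMatrix'_compLeft, LinearMap.BilinForm.toMatrix'_compRight,
      LinearMap.toMatrix'_toLin', LinearMap.toMatrix'_toLin', Matrix.mul_neg] at e2
  refine hg (mem_dSub.mpr (Units.ext ?_))
  rw [Units.val_pow_eq_pow_val, ← hμ, h]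
  exact Proj.Balance.OrthGraph.det_of_skew H.two H.card hJ
    (congrArg (fun z : GO Q => ((z.1 : GL ι F) : Mι)) hc.symm) hs

/-- An isometry commuting with `g`, of determinant one and non-trivial spinor norm. -/
theorem exists_commuting_pair {g : GO Q} {c : Fˣ} (hc : g * g = sc Q c)
    (hadj : ∀ u v, QuadraticMap.polar ⇑Q ((g.1 : Mι) *ᵥ u) v =
      QuadraticMap.polar ⇑Q u ((g.1 : Mι) *ᵥ v)) :
    ∃ p : Forms.orthGroup Q, Forms.orthDet Q p = 1 ∧ Forms.spinor Q H.two p ≠ 1 ∧
      orthInc Q p * g = g * orthInc Q p := by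
  let S : SA Q (c : F) :=
    { two := H.two, nd := H.nd, T := Matrix.toLin' (g.1 : Mι)
      TT := fun v => by
        simp only [Matrix.toLin'_apply]
        rw [← sc_mulVec (Q := Q) c v, ← hc]
        show _ = ((g.1 * g.1 : GL ι F) : Mι) *ᵥ v
        rw [Units.val_mul, ← Matrix.mulVec_mulVec]
      adj := fun u v => by simp only [Matrix.toLin'_apply]; exact hadj u v }
  have h5 : 5 ≤ Fintype.card ι := by have := H.dim; omega
  obtain ⟨U, W, hU, hW, hUW, hns, hcomm⟩ : ∃ U W, Q U ≠ 0 ∧ Q W ≠ 0 ∧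
      QuadraticMap.polar ⇑Q U W = 0 ∧ ¬ IsSquare (Q U * Q W) ∧
      ∀ x, S.T (pairMap Q U W x) = pairMap Q U W (S.T x) := by
    by_cases hsq : IsSquare (c : F)
    · obtain ⟨t, ht⟩ := hsq
      exact S.pair_split h5 ht.symm fun h => c.ne_zero (by rw [ht, h, mul_zero])
    · exact S.pair_nonsplit h5 hsq
  refine ⟨Forms.reflection Q U * Forms.reflection Q W, ?_, ?_, go_ext fun x => ?_⟩
  · refine Units.ext ?_
    rw [map_mul, Units.val_mul, Forms.orthDet_reflection Q hU, Forms.orthDet_reflection Q hW]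
    simp
  · exact fun h => hns ((H.spinor_pair hU hW).mp h)
  · have hp : ∀ y, ((Forms.reflection Q U * Forms.reflection Q W : Forms.orthGroup Q) :
        Vι ≃ₗ[F] Vι) y = pairMap Q U W y := fun y => by
      show (Forms.reflection Q U : Vι ≃ₗ[F] Vι) ((Forms.reflection Q W : Vι ≃ₗ[F] Vι) y) = _
      rw [Forms.reflection_apply, Forms.reflection_apply, pairMap, sub_eq_add_neg y, ← neg_smul,
        QuadraticMap.polar_add_right, QuadraticMap.polar_smul_right, hUW, smul_zero, add_zero,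
        neg_smul, ← sub_eq_add_neg]
      abel
    show ((((orthInc Q _).1 : GL ι F) * g.1 : GL ι F) : Mι) *ᵥ x =
      ((g.1 * ((orthInc Q _).1 : GL ι F) : GL ι F) : Mι) *ᵥ x
    rw [Units.val_mul, Units.val_mul, ← Matrix.mulVec_mulVec, ← Matrix.mulVec_mulVec,
      orthInc_mulVec, orthInc_mulVec, hp, hp]
    have := hcomm x
    simp only [S, Matrix.toLin'_apply] at this
    exact this.symm

/-- A class-preserving similarity commuting with the involution has square multiplier. -/
theorem isSquare_of_commute (hneg : Odd k → Forms.negOne Q ∈ commutator (Forms.orthGroup Q))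
    {g : GO Q} (hg : g ∉ dSub H.ns k) {c : Fˣ} (hc : g * g = sc Q c) (hμ : sim H.ns g = c)
    (hadj : ∀ u v, QuadraticMap.polar ⇑Q ((g.1 : Mι) *ᵥ u) v =
      QuadraticMap.polar ⇑Q u ((g.1 : Mι) *ᵥ v))
    {h : GO Q} (hh : h ∈ dSub H.ns k) (hcomm : A Q h * A Q g = A Q g * A Q h) :
    IsSquare (sim H.ns h : F) := by
  classical
  by_contra hns
  obtain ⟨u, hu⟩ := (A_eq_one_iff' H.nd H.dim (h * g * (g * h)⁻¹)).mp
    (by rw [map_mul, map_mul, map_inv, map_mul, hcomm, mul_inv_cancel])
  have hhg : h * g = sc Q u * (g * h) := by rw [hu, inv_mul_cancel_right]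
  obtain ⟨E, hE, hEu⟩ : ∃ E : Forms.orthGroup Q, Forms.spinor Q H.two E = 1 ∧
      orthInc Q E = sc Q u := by
    have hu2 : (u : F) * u = 1 := by
      have := congrArg (sim H.ns) hhg
      rw [map_mul, map_mul, map_mul, sim_sc, mul_comm (sim H.ns g) (sim H.ns h),
        right_eq_mul] at this
      rw [← Units.val_mul, this, Units.val_one]
    rcases mul_self_eq_one_iff.mp hu2 with h1 | h1
    · exact ⟨1, map_one _, by rw [map_one, show u = 1 from Units.ext h1, map_one]⟩
    · have hu1 : u = -1 := Units.ext (by rw [h1, Units.val_neg, Units.val_one])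
      refine ⟨Forms.negOne Q, H.negOne_spinor (hneg ?_), by rw [orthInc_negOne, hu1]⟩
      -- `g` is skew for the form twisted by `h`
      set B : LinearMap.BilinForm F Vι := QuadraticMap.polarBilin Q with hBdef
      set J := LinearMap.BilinForm.toMatrix' B with hJd
      have hJ : J.det ≠ 0 := LinearMap.BilinForm.nondegenerate_iff_det_ne_zero (Pi.basisFun F ι)
        |>.mp H.nd |> fun h => by rwa [LinearMap.BilinForm.toMatrix_basisFun] at h
      have hs : (g.1 : Mι).transpose * J = J * (g.1 : Mι) := by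
        have e : B.compLeft (Matrix.toLin' (g.1 : Mι)) = B.compRight (Matrix.toLin' (g.1 : Mι)) := by
          refine LinearMap.BilinForm.ext fun u v => ?_
          show QuadraticMap.polar ⇑Q ((g.1 : Mι) *ᵥ u) v = QuadraticMap.polar ⇑Q u ((g.1 : Mι) *ᵥ v)
          exact hadj u v
        have e2 := congrArg LinearMap.BilinForm.toMatrix' e
        rwa [LinearMap.BilinForm.toMatrix'_compLeft, LinearMap.BilinForm.toMatrix'_compRight,
          LinearMap.toMatrix'_toLin'] at e2
      have hm : (h.1 : Mι) * (g.1 : Mι) = -((g.1 : Mι) * (h.1 : Mι)) := by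
        refine Forms.matrix_ext_mulVec fun x => ?_
        have e := congrArg (fun z : GO Q => ((z.1 : GL ι F) : Mι) *ᵥ x) hhg
        simp only [Subgroup.coe_mul, Units.val_mul] at e
        rw [e, ← Matrix.mulVec_mulVec, sc_mulVec, h1, neg_smul, one_smul, Matrix.neg_mulVec]
      have hdet := Proj.Balance.OrthGraph.det_of_skew H.two H.card
        (J := J * (h.1 : Mι))
        (by rw [Matrix.det_mul]; exact mul_ne_zero hJ (Matrix.GeneralLinearGroup.det h.1).ne_zero)
        (congrArg (fun z : GO Q => ((z.1 : GL ι F) : Mι)) hc)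
        (by rw [← Matrix.mul_assoc, hs, Matrix.mul_assoc, Matrix.mul_assoc, hm, Matrix.mul_neg,
          neg_neg])
      by_contra hk
      refine hg (mem_dSub.mpr (Units.ext ?_))
      rw [Units.val_pow_eq_pow_val, hμ, detGO_val, hdet, (Nat.not_odd_iff_even.mp hk).neg_pow]
  rw [← hEu] at hhg
  by_cases hsq : IsSquare (c : F)
  · obtain ⟨t, ht⟩ := hsq
    have ht0 : t ≠ 0 := fun h => c.ne_zero (by rw [ht, h, mul_zero])
    set τ := Units.mk0 t ht0 with hτ
    have hcτ : c = τ * τ := Units.ext (by rw [hτ, Units.val_mul, Units.val_mk0]; exact ht)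
    obtain ⟨r, hr⟩ := exists_orth H (x := g * (sc Q τ)⁻¹)
      (by rw [map_mul, map_inv, sim_sc, hμ, ← hcτ, mul_inv_cancel])
    refine no_twist H hns (r := r) ?_ hE ?_
    · intro h1
      rw [← orthInc_det, ← hr] at h1
      refine hg ?_
      have hm : g * (sc Q τ)⁻¹ ∈ dSub H.ns k :=
        mem_dSub.mpr (by rw [h1, map_mul, map_inv, sim_sc, hμ, ← hcτ, mul_inv_cancel, one_pow])
      simpa using mul_mem hm (H.sc_mem τ)
    · rw [map_mul, ← hr, ← mul_assoc, hhg, mul_assoc, mul_assoc, mul_assoc, mul_assoc,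
        ← (sc_comm τ h).inv_left.eq]
  · obtain ⟨s, hs⟩ := (binary_isSquare_mul_not (Units.ne_zero _) hsq).mpr hns
    have hs0 : s ≠ 0 := fun h0 => mul_ne_zero (Units.ne_zero _) (Units.ne_zero _)
      (hs.trans (by rw [h0, mul_zero]))
    set ν := Units.mk0 s hs0 with hν
    have hνν : sim H.ns h * c = ν * ν := Units.ext (by
      rw [hν, Units.val_mul, Units.val_mul, Units.val_mk0]; exact hs)
    obtain ⟨r, hr⟩ := exists_orth H (x := h * g * (sc Q ν)⁻¹)
      (by rw [map_mul, map_mul, map_inv, sim_sc, hμ, hνν, mul_inv_cancel])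
    have hE1 : sc Q u * sc Q u = 1 := by
      rw [← hEu, ← map_mul]
      have : E * E = 1 := by
        refine orthInc_injective ?_
        rw [map_mul, hEu, map_one, ← map_mul]
        have := congrArg (sim H.ns) hEu.symm
        rw [sim_sc, sim_orthInc H] at this
        rw [this, map_one]
      rw [this, map_one]
    refine no_twist H (x := g) (by rw [hμ]; exact hsq) (r := r) ?_ hE ?_
    · intro h1
      rw [← orthInc_det, ← hr] at h1
      refine hg ?_
      have hm : h * g * (sc Q ν)⁻¹ ∈ dSub H.ns k := mem_dSub.mpr (by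
        rw [h1, map_mul, map_mul, map_inv, sim_sc, hμ, hνν, mul_inv_cancel, one_pow])
      have := mul_mem (inv_mem hh) (mul_mem hm (H.sc_mem ν))
      simpa [mul_assoc] using this
    · -- `g t g⁻¹ = u t`
      rw [map_mul, ← hr, hEu]
      rw [hEu] at hhg
      have e1 : g * h = sc Q u * (h * g) := by rw [hhg, ← mul_assoc, hE1, one_mul]
      calc g * (h * g * (sc Q ν)⁻¹) = g * h * g * (sc Q ν)⁻¹ := by simp only [mul_assoc]
        _ = sc Q u * (h * g) * g * (sc Q ν)⁻¹ := by rw [e1]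
        _ = sc Q u * (h * g) * ((sc Q ν)⁻¹ * g) := by
            rw [(sc_comm ν g).inv_left.eq]; simp only [mul_assoc]
        _ = sc Q u * (h * g * (sc Q ν)⁻¹) * g := by simp only [mul_assoc]

/-- The splitting of the class. -/
theorem count {γ : MulAut (Cfsg.POmega F ⇑Q)} (hγ2 : γ * γ = 1) {g : GO Q}
    (hgγ : A Q g = γ) (hg : g ∉ dSub H.ns k) :
    (Cfsg.splitClassCount ((dSub H.ns k).map (A Q)) (Cfsg.Inn (Cfsg.POmega F ⇑Q)) γ = 1 ∨
      Cfsg.splitClassCount ((dSub H.ns k).map (A Q)) (Cfsg.Inn (Cfsg.POmega F ⇑Q)) γ = 2) ∧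
    ((Odd k → Forms.negOne Q ∈ commutator (Forms.orthGroup Q)) →
      Cfsg.splitClassCount ((dSub H.ns k).map (A Q)) (Cfsg.Inn (Cfsg.POmega F ⇑Q)) γ = 2) := by
  classical
  subst hgγ
  obtain ⟨c, hc, hμ, hadj⟩ := graph_facts H hg hγ2
  obtain ⟨p, hpd, hps, hpg⟩ := exists_commuting_pair H hc hadj
  set I := Cfsg.Inn (Cfsg.POmega F ⇑Q)
  set D := (dSub H.ns k).map (A Q)
  haveI : I.Normal := inn_normal_pomega
  have hID : I ≤ D := H.inn_le_pso.trans H.pso_le
  rw [AutPSL.splitClassCount_eq_relIndex _ _ hID]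
  set S := I ⊔ (D ⊓ Subgroup.centralizer {A Q g})
  have hSD : S ≤ D := sup_le hID inf_le_left
  have hpS : A Q (orthInc Q p) ∈ S := by
    refine Subgroup.mem_sup_right ⟨⟨_, ?_, rfl⟩, Subgroup.mem_centralizer_singleton_iff.mpr ?_⟩
    · refine mem_dSub.mpr ?_
      rw [orthInc_det, hpd, sim_orthInc H, one_pow]
    · rw [← map_mul, ← map_mul, hpg]
  have hpso : Cfsg.psoAut F ⇑Q ≤ S := by
    rw [psoAut_eq]
    rintro _ ⟨x, hx, rfl⟩
    obtain ⟨r, rfl⟩ := exists_orth H (x := x) (by
      rw [← MonoidHom.mem_ker, sim_ker]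
      exact ⟨⟨x.1, hx.1⟩, Subtype.ext rfl⟩)
    have hrd : Forms.orthDet Q r = 1 := by rw [← orthInc_det]; exact hx.2
    rcases Int.units_eq_one_or (Forms.spinor Q H.two r) with h | h
    · exact Subgroup.mem_sup_left (inn_of_spinor H hrd h)
    · have hp1 := (Int.units_eq_one_or (Forms.spinor Q H.two p)).resolve_left hps
      have := Subgroup.mem_sup_left (T := D ⊓ Subgroup.centralizer {A Q g})
        (inn_of_spinor H (r := r * p) (by rw [map_mul, hrd, hpd, one_mul])
          (by rw [map_mul, h, hp1]; decide))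
      have := mul_mem this (inv_mem hpS)
      rwa [map_mul, map_mul, mul_inv_cancel_right] at this
  have hne : I.relIndex (Cfsg.psoAut F ⇑Q) ≠ 0 := by
    haveI : Finite (MulAut (Cfsg.POmega F ⇑Q)) := Finite.of_injective _ DFunLike.coe_injective
    exact Subgroup.index_ne_zero_of_finite
  have h2 : (Cfsg.psoAut F ⇑Q).relIndex D = 2 := by
    have h := Subgroup.relIndex_mul_relIndex _ _ _ H.inn_le_pso H.pso_le
    rw [(H.relIndices rfl).2, mul_comm 2] at h
    exact mul_left_cancel₀ hne h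
  have hdiv : S.relIndex D ∣ 2 := h2 ▸ Subgroup.relIndex_dvd_of_le_left D hpso
  have hcases := (Nat.dvd_prime Nat.prime_two).mp hdiv
  refine ⟨hcases, fun hneg => hcases.resolve_left fun h1 => ?_⟩
  -- everything inner-diagonal would have square multiplier
  let Sq : Subgroup (GO Q) :=
    dSub H.ns k ⊓ ((powMonoidHom 2 : Fˣ →* Fˣ).range).comap (sim H.ns)
  have hmem : ∀ x : GO Q, x ∈ Sq ↔ x ∈ dSub H.ns k ∧ IsSquare (sim H.ns x : F) := fun x => by
    refine and_congr_right fun _ => ⟨?_, ?_⟩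
    · rintro ⟨s, hs⟩
      exact ⟨s, by rw [← hs, powMonoidHom_apply, sq, Units.val_mul]⟩
    · rintro ⟨s, hs⟩
      have hs0 : s ≠ 0 := fun h0 => (sim H.ns x).ne_zero (by rw [hs, h0, mul_zero])
      exact ⟨Units.mk0 s hs0, Units.ext (by
        rw [powMonoidHom_apply, sq, Units.val_mul, Units.val_mk0, hs])⟩
  have hS : S ≤ Sq.map (A Q) := by
    refine sup_le (fun β hβ => ?_) ?_
    · obtain ⟨x, hx, rfl⟩ := hID hβ
      exact ⟨x, (hmem x).mpr ⟨hx, (H.inn_shape hβ).2.map (Units.coeHom F)⟩, rfl⟩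
    · rintro _ ⟨⟨x, hx, rfl⟩, hcm⟩
      exact ⟨x, (hmem x).mpr ⟨hx, isSquare_of_commute H hneg hg hc hμ hadj hx
        (Subgroup.mem_centralizer_singleton_iff.mp hcm)⟩, rfl⟩
  obtain ⟨δ, hδ⟩ := exists_nonsquare_unit (F := F) H.two
  obtain ⟨b, hb⟩ := H.surj δ
  obtain ⟨y, hy, hyd⟩ : ∃ y, y ∈ dSub H.ns k ∧ sim H.ns y = δ := by
    by_cases hbD : b ∈ dSub H.ns k
    · exact ⟨b, hbD, hb⟩
    · obtain ⟨v, hv⟩ := H.ns
      refine ⟨b * reflGO Q v, (Subgroup.mul_mem_iff_of_index_two H.index_dSub).mpr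
        ⟨fun h => absurd h hbD, fun h => absurd (mem_dSub.mp h) ?_⟩,
        by rw [map_mul, hb, sim_reflGO, mul_one]⟩
      rw [detGO_reflGO hv, sim_reflGO, one_pow]
      exact H.neg_one_ne
  obtain ⟨x, hx, hxy⟩ := hS (Subgroup.relIndex_eq_one.mp h1 ⟨y, hy, rfl⟩)
  obtain ⟨z, hz⟩ := (A_eq_one_iff' H.nd H.dim (x⁻¹ * y)).mp
    (by rw [map_mul, map_inv, hxy, inv_mul_cancel])
  have hyx : y = x * sc Q z := by rw [hz, mul_inv_cancel_left]
  refine hδ ?_
  rw [← hyd, hyx, map_mul, sim_sc, Units.val_mul, Units.val_mul]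
  exact ((hmem x).mp hx).2.mul (IsSquare.mul_self _)

end

end Cfsg.Agent.KnownB.OrthSplit
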